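import Cfsg.Agent.H999.CY.AutAct
import Cfsg.Agent.H987.BR.UAut
import Cfsg.Agent.H158.BR.UPairs

/-!
# S4829: `MulAut (PSU n F q)` acts on the totally isotropic `k`-spaces (helper999)

* `psuPolAut hF hn h32 k : PolAut (hpol hF n) (PSU n F q) k`;
* `psuAutAct` : `MulAction (MulAut (PSU n F q)) (uX hF n k)`; `psuAut_conj`, `psuAut_orb`.
-/

set_option autoImplicit false
set_option linter.unusedSectionVars false
set_option linter.unusedVariables false

open Module

namespace Cfsg.Agent.H999.CY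

open Cfsg Matrix
open Cfsg.Agent.H2.Pol Cfsg.Agent.H674.BR Cfsg.Agent.H646.BR.U
open Cfsg.Agent.LieClassical.HermBasic Cfsg.Agent.LieClassical.HermSiegel
open Cfsg.Agent.ClassicalGeometry.PSUAutBasic Cfsg.Agent.ClassicalGeometry.PSUAutCount

variable {F : Type*} [Field F] [Fintype F] {n q : ℕ}

/-- a vector orthogonal to `u` but not to `x` -/
theorem exists_sep (hF : Fintype.card F = q ^ 2) {u x : Fin n → F} (hu : u ≠ 0) (hx : ∀ c : F, x ≠ c • u) :
    ∃ w : Fin n → F, hermForm n F q w u = 0 ∧ hermForm n F q w x ≠ 0 := by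
  by_contra hcon
  push Not at hcon
  obtain ⟨v0, hv0⟩ := exists_herm_ne_zero hF hu
  have hv0' : hermForm n F q v0 u ≠ 0 := fun h => hv0 (herm_eq_zero_swap hF h)
  obtain ⟨w0, hw0⟩ : ∃ w0 : Fin n → F, hermForm n F q w0 u = 1 :=
    ⟨(hermForm n F q v0 u)⁻¹ • v0, by rw [herm_smul_left, inv_mul_cancel₀ hv0']⟩
  apply hx ((hermForm n F q w0 x) ^ q)
  rw [← sub_eq_zero]
  by_contra hne
  obtain ⟨v, hv⟩ := exists_herm_ne_zero hF hne
  apply hv
  apply herm_eq_zero_swap hF
  have h1 := hcon (v - hermForm n F q v u • w0) (by rw [herm_sub_left, herm_smul_left, hw0, mul_one, sub_self])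
  rw [herm_sub_left, herm_smul_left] at h1
  rw [herm_sub_right hF, herm_smul_right, pow_q_pow_q hF]
  linear_combination h1

/-- the image of `U` -/
theorem mem_smul_of (hF : Fintype.card F = q ^ 2) {k : ℕ} (g : SU n F q) (U : uX hF n k) {v : Fin n → F}
    (hv : v ∈ U.1) : act g v ∈ (g • U).1 := by
  rw [su_smul]
  exact ⟨v, hv, rfl⟩

/-- an element mapping `U` into itself fixes it -/
theorem smul_eq_of_le (hF : Fintype.card F = q ^ 2) {k : ℕ} (g : SU n F q) (U : uX hF n k)
    (h : ∀ v ∈ U.1, act g v ∈ U.1) : g • U = U := by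
  apply Subtype.ext
  apply Submodule.eq_of_le_of_finrank_eq
  · rw [su_smul]
    rintro _ ⟨v, hv, rfl⟩
    exact h v hv
  · rw [(g • U).2.2, U.2.2]

/-- different totally isotropic subspaces have different stabilizers -/
theorem su_inj (hF : Fintype.card F = q ^ 2) {k : ℕ} (U W : uX hF n k) (h : ∀ g : SU n F q, g • U = U → g • W = W) :
    U = W := by
  by_contra hne
  have hle : ¬ U.1 ≤ W.1 := fun hle => hne (Subtype.ext (Submodule.eq_of_le_of_finrank_eq hle (by rw [U.2.2, W.2.2])))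
  have hle' : ¬ W.1 ≤ U.1 := fun hle => hne (Subtype.ext (Submodule.eq_of_le_of_finrank_eq hle (by
    rw [U.2.2, W.2.2])).symm)
  have hU := (TI_iff hF).1 U.2.1
  have hW := (TI_iff hF).1 W.2.1
  by_cases hperp : ∀ x ∈ W.1, ∀ u ∈ U.1, hermForm n F q x u = 0
  · obtain ⟨u, huU, huW⟩ := Set.not_subset.1 hle
    obtain ⟨x, hxW, hxU⟩ := Set.not_subset.1 hle'
    have hu0 : u ≠ 0 := by
      rintro rfl
      exact huW W.1.zero_mem
    obtain ⟨w, hwu, hwx⟩ := exists_sep hF hu0 (x := x) (fun c hc => hxU (by rw [hc]; exact U.1.smul_mem c huU))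
    obtain ⟨μ, hμ⟩ := exists_trace_eq hF (c := -hermForm n F q w w) (by rw [neg_pow_q hF, herm_self_pow hF])
    have hs : IsSiegel q u w μ := ⟨hU u huU u huU, hwu, by rw [hμ, neg_add_cancel]⟩
    have h1 := h (siegel hF u w μ hs) (smul_eq_of_le hF _ U (by
      intro v hv
      rw [act_siegel, hU v hv u huU, zero_smul, mul_zero, zero_sub, add_zero]
      exact U.1.add_mem hv (U.1.smul_mem _ huU)))
    have h2 := mem_smul_of hF (siegel hF u w μ hs) W hxW
    rw [h1, act_siegel, hperp x hxW u huU, zero_smul, mul_zero, zero_sub, add_zero] at h2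
    have h3 := W.1.sub_mem h2 hxW
    rw [add_sub_cancel_left] at h3
    have h4 : -hermForm n F q x w ≠ 0 := neg_ne_zero.2 fun h5 => hwx (herm_eq_zero_swap hF h5)
    have h5 := W.1.smul_mem (-hermForm n F q x w)⁻¹ h3
    rw [smul_smul, inv_mul_cancel₀ h4, one_smul] at h5
    exact huW h5
  · push Not at hperp
    obtain ⟨x, hxW, u, huU, hxu⟩ := hperp
    have huW : u ∉ W.1 := fun hu => hxu (hW x hxW u hu)
    obtain ⟨κ, hκ0, hκ⟩ := exists_trace_zero_ne hF
    have hs : IsSiegel q u 0 κ := ⟨hU u huU u huU, herm_zero_left u, by rw [herm_zero_left, add_zero]; exact hκ⟩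
    have h1 := h (siegel hF u 0 κ hs) (smul_eq_of_le hF _ U (by
      intro v hv
      rw [act_siegel, hU v hv u huU, zero_smul, mul_zero, herm_zero_right hF, sub_zero, zero_smul, add_zero, add_zero]
      exact hv))
    have h2 := mem_smul_of hF (siegel hF u 0 κ hs) W hxW
    rw [h1, act_siegel, smul_zero, add_zero, herm_zero_right hF, sub_zero] at h2
    have h3 := W.1.sub_mem h2 hxW
    rw [add_sub_cancel_left] at h3
    have h4 : κ * hermForm n F q x u ≠ 0 := mul_ne_zero hκ0 hxu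
    have h5 := W.1.smul_mem (κ * hermForm n F q x u)⁻¹ h3
    rw [smul_smul, inv_mul_cancel₀ h4, one_smul] at h5
    exact huW h5

/-- **the data for `PSU`** -/
theorem psuPolAut (hF : Fintype.card F = q ^ 2) (hn : 3 ≤ n) (h32 : ¬ (n = 3 ∧ q = 2)) (k : ℕ) :
    letI := psuAct hF hn k
    PolAut (hpol hF n) (PSU n F q) k := by
  letI := psuAct hF hn k
  refine ⟨?_, ?_, ?_⟩
  · intro U W h
    apply su_inj hF
    intro g hg
    exact h (pr n F q g) hg
  · intro a
    obtain ⟨M, hM, ha⟩ := H987.BR.psu_aut hF hn h32 a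
    refine ⟨M, hM, fun x U hx => ?_⟩
    obtain ⟨g, rfl⟩ : ∃ g, pr n F q g = x := QuotientGroup.mk_surjective x
    obtain ⟨g', hg', hm⟩ := ha g
    have hx' : g • U = U := hx
    rw [← hg']
    change g' • hM.perm k U = hM.perm k U
    apply smul_eq_of_le hF
    rintro _ ⟨x, hxU, rfl⟩
    have h1 : act g' (M x) = M (act g x) := hm x
    rw [h1]
    have h2 := mem_smul_of hF g U hxU
    rw [hx'] at h2
    exact hM.mem_sub.2 h2
  · intro U U2 W W2 h
    exact H158.BR.psu_pairs hF hn U U2 W W2 h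

/-- **the action of the automorphism group of `PSU` on the totally isotropic `k`-spaces** -/
@[reducible] noncomputable def psuAutAct (hF : Fintype.card F = q ^ 2) (hn : 3 ≤ n) (h32 : ¬ (n = 3 ∧ q = 2)) (k : ℕ) :
    MulAction (MulAut (PSU n F q)) (uX hF n k) :=
  letI := psuAct hF hn k
  (psuPolAut hF hn h32 k).data.act

/-- inner automorphisms act as the group -/
theorem psuAut_conj (hF : Fintype.card F = q ^ 2) (hn : 3 ≤ n) (h32 : ¬ (n = 3 ∧ q = 2)) {k : ℕ} (s : PSU n F q)
    (U : uX hF n k) :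
    (letI := psuAutAct hF hn h32 k; MulAut.conj s • U) = (letI := psuAct hF hn k; s • U) := by
  letI := psuAct hF hn k
  exact (psuPolAut hF hn h32 k).data.act_conj s U

/-- the image of `U` is given by any semi-isometry inducing `a` -/
theorem psuAut_eq (hF : Fintype.card F = q ^ 2) (hn : 3 ≤ n) (h32 : ¬ (n = 3 ∧ q = 2)) {k : ℕ} {a : MulAut (PSU n F q)}
    {M : (Fin n → F) ≃+ (Fin n → F)} (hM : SemiAct (hpol hF n) M) (ha : Induces (suL n F q) (pr n F q) M a)
    (U : uX hF n k) : (letI := psuAutAct hF hn h32 k; a • U) = hM.perm k U := by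
  letI := psuAct hF hn k
  apply (psuPolAut hF hn h32 k).data.eq_of
  intro x hx
  obtain ⟨g, rfl⟩ : ∃ g, pr n F q g = x := QuotientGroup.mk_surjective x
  obtain ⟨g', hg', hm⟩ := ha g
  have hx' : g • U = U := hx
  rw [← hg']
  change g' • hM.perm k U = hM.perm k U
  apply smul_eq_of_le hF
  rintro _ ⟨x, hxU, rfl⟩
  have h1 : act g' (M x) = M (act g x) := hm x
  rw [h1]
  have h2 := mem_smul_of hF g U hxU
  rw [hx'] at h2
  exact hM.mem_sub.2 h2

/-- **every `PSU`-orbital is preserved** -/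
theorem psuAut_orb (hF : Fintype.card F = q ^ 2) (hn : 3 ≤ n) (h32 : ¬ (n = 3 ∧ q = 2)) {k : ℕ} (a : MulAut (PSU n F q))
    (U W : uX hF n k) :
    letI := psuAutAct hF hn h32 k
    ∃ g : PSU n F q, MulAut.conj g • U = a • U ∧ MulAut.conj g • W = a • W := by
  obtain ⟨g, h1, h2⟩ := (letI := psuAct hF hn k; (psuPolAut hF hn h32 k).orb a U W)
  refine ⟨g, ?_, ?_⟩
  · rw [psuAut_conj hF hn h32]; exact h1
  · rw [psuAut_conj hF hn h32]; exact h2

end Cfsg.Agent.H999.CY
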